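import Mathlib
import Cfsg.Agent.H662.BFKernel
import Cfsg.Agent.H662.ChermakDelgado
import Cfsg.Agent.H662.Jordan
import Cfsg.Agent.H662.LiftRep

/-!
# Abelian subgroups of bounded index: the induction

`exists_bd` : for all `m`, `n` there is `c` such that every finite group with `|G|_p ≤ p ^ m` and a
faithful representation of dimension at most `n` over the residue field has an abelian subgroup of
index at most `c`.
-/

set_option autoImplicit false
open Module Cfsg

namespace Cfsg.Agent.H662.BF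

open Cfsg.Agent.H662.KeyAbs Cfsg.Agent.H662.ChermakDelgado Cfsg.Agent.Blocks.Local

universe u

theorem bd_zero (K : Type) [Field K] (p m : ℕ) : Bd.{u} K p m 0 1 := by
  intro G _ _ V _ _ _ ρ hρ hn _
  have h0 : finrank K V = 0 := by omega
  have hV : Subsingleton V := Module.finrank_zero_iff.1 h0
  have hG : Subsingleton G := ⟨fun a b => hρ (Subsingleton.elim _ _)⟩
  exact ⟨⊤, fun a _ b _ => Subsingleton.elim _ _, by rw [Subgroup.index_top]⟩

theorem bd_step {K : Type} [Field K] [IsAlgClosed K] {p : ℕ} [hp : Fact p.Prime] [CharP K p]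
    (hI : ImageBound.{u} K p) {m n c₀ c₁ J : ℕ} (h₀ : Bd.{u} K p (m + 1) n c₀)
    (h₁ : Bd.{u} K p m (n + 1) c₁) (hJ : Bd.{u} K p 0 (n + 1) J) :
    ∃ c : ℕ, Bd.{u} K p (m + 1) (n + 1) c := by
  obtain ⟨b, hb⟩ := exists_kernel hI (m + 1) (n + 1)
  set r := c₁ ^ 2 * b with hr
  refine ⟨c₀ + p ^ (m + 1) * (c₀ * c₀) * (n + 1) + J + J * r ^ r, ?_⟩
  intro G _ _ V _ _ _ ρ hρ hn hm
  rcases Nat.lt_or_ge (finrank K V) (n + 1) with hlt | hge
  · obtain ⟨A, hA, hAi⟩ := h₀ G V ρ hρ (by omega) hm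
    exact ⟨A, hA, by omega⟩
  have hd : finrank K V = n + 1 := le_antisymm hn hge
  by_cases hns : ∃ A : Subgroup G, A.Normal ∧ (∀ a ∈ A, ∀ b ∈ A, a * b = b * a) ∧
      ¬ A ≤ scal ρ
  · obtain ⟨A, hAn, hA, hAs⟩ := hns
    obtain ⟨a, ha, has⟩ := SetLike.not_le_iff_exists.1 hAs
    obtain ⟨B, hB, hBi⟩ := of_nonscalar h₀ ρ hρ hn hm A hA
      ⟨a, ha, fun c hc => has ⟨c, hc⟩⟩
    exact ⟨B, hB, by omega⟩
  push Not at hns
  by_cases hpG : p ∣ Nat.card G
  · obtain ⟨K₀, hK₀n, hK₀H, hK₀i, hK₀p⟩ := hb G V ρ hρ hd hm hpG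
    obtain ⟨B, hB, hBi⟩ := h₁ K₀ V (ρ.comp K₀.subtype) (hρ.comp K₀.subtype_injective) hn (by omega)
    obtain ⟨L, hLc, hL, hLi⟩ := exists_characteristic B hB
    have hLn : (L.map K₀.subtype).Normal := ConjAct.normal_of_characteristic_of_normal
    have hLs : L.map K₀.subtype ≤ scal ρ := by
      apply hns _ hLn
      rintro _ ⟨a, ha, rfl⟩ _ ⟨b, hb, rfl⟩
      exact congrArg Subtype.val (hL a ha b hb)
    have h2 : (L.map K₀.subtype).relIndex K₀ = L.index := by
      rw [Subgroup.relIndex, Subgroup.subgroupOf, Subgroup.comap_map_eq_self_of_injective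
        K₀.subtype_injective]
    have h3 : (scal ρ).relIndex (Subgroup.closure (pElts p G)) ≤ r := by
      refine le_trans (Subgroup.relIndex_le_of_le_left hLs ?_) ?_
      · show ((L.map K₀.subtype).subgroupOf _).index ≠ 0
        exact Subgroup.index_ne_zero_of_finite
      · rw [← Subgroup.relIndex_mul_relIndex (L.map K₀.subtype) K₀ _ (Subgroup.map_subtype_le L)
          hK₀H, h2, hr]
        exact Nat.mul_le_mul (hLi.trans (Nat.pow_le_pow_left hBi 2)) hK₀i
    obtain ⟨A, hA, hAi⟩ := of_scalar hJ ρ hρ hn hns h3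
    exact ⟨A, hA, by omega⟩
  · obtain ⟨A, hA, hAi⟩ := hJ G V ρ hρ hn (le_of_eq (Nat.factorization_eq_zero_of_not_dvd hpG))
    exact ⟨A, hA, by omega⟩

theorem exists_bd_of {K : Type} [Field K] [IsAlgClosed K] {p : ℕ} [hp : Fact p.Prime] [CharP K p]
    (hI : ImageBound.{u} K p) (hJ : ∀ n, ∃ J, Bd.{u} K p 0 n J) (m n : ℕ) :
    ∃ c : ℕ, Bd.{u} K p m n c := by
  induction m generalizing n with
  | zero => exact hJ n
  | succ m ihm =>
    induction n with
    | zero => exact ⟨1, bd_zero K p (m + 1)⟩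
    | succ n ihn =>
      obtain ⟨c₀, h₀⟩ := ihn
      obtain ⟨c₁, h₁⟩ := ihm (n + 1)
      obtain ⟨J, hJ'⟩ := hJ (n + 1)
      exact bd_step hI h₀ h₁ hJ'

section res

variable {p : ℕ} [hp : Fact p.Prime] {M : Ideal AlgInt} [hP : M.IsPrime]

theorem exists_jordan (hM : IsPModular p M) (n : ℕ) : ∃ J, Bd.{u} (ResField M) p 0 n J := by
  choose N hN using fun d => Cfsg.Agent.H662.Jordan.jordan.{u, u} d
  refine ⟨(Finset.range (n + 1)).sup N, ?_⟩
  intro G _ _ V _ _ _ ρ hρ hn hm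
  have hG : ¬ p ∣ Nat.card G := by
    intro hdvd
    have := hp.out.factorization_pos_of_dvd Nat.card_pos.ne' hdvd
    omega
  obtain ⟨W, τ, hτ, hW⟩ := Cfsg.Agent.H662.LiftRep.exists_complex_rep hM hG ρ hρ
  obtain ⟨A, hA, hAi⟩ := hN (finrank ℂ W) G W τ hτ rfl
  refine ⟨A, hA, hAi.trans ?_⟩
  exact Finset.le_sup (f := N) (Finset.mem_range.2 (by omega))

theorem exists_bd (hM : IsPModular p M) (m n : ℕ) : ∃ c : ℕ, Bd.{u} (ResField M) p m n c := by
  have hmax : M.IsMaximal := isMaximal_of_isPModular hM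
  have halg : IsAlgClosed (ResField M) := Cfsg.Agent.Blocks.CyclicAssembly.isAlgClosed_resField
  have hchar : CharP (ResField M) p := charP_resField hM
  exact exists_bd_of (fun H _ _ e he V _ _ _ ρ h1 =>
    Cfsg.Agent.H662.TraceField.index_ker_le hM he ρ h1) (exists_jordan hM) m n

end res

end Cfsg.Agent.H662.BF
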