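import Cfsg.Agent.H662.IndLocal
import Cfsg.Agent.OddOrderLocal.PiCore

/-!
# Normal `π'`-subgroups in the kernels of blocks with a common induced block

* `mem_core_centralizer`, `core_centralizer_le`: elements of `O_π'(G₀)` normalising the `p`-subgroup
  `Q ≤ G₀`, `C_G(Q) ≤ G₀`, lie in `O_π'(C_G(Q)) ≤ O_π'(N_G(Q))`;
* `descend`: if `O_π'(N_G(D))` is in the kernel of the Brauer correspondent of `B`, then `O_π'(G₀)` is
  in the kernel of every block `B₀` of `G₀` inducing `B` with `C_G(D₀) ≤ G₀` (statement S4734).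
-/

set_option autoImplicit false

open Cfsg

namespace Cfsg.Agent.H662

open Cfsg.Agent.OddOrderLocal.PiCoreOf

variable {G : Type*} [Group G]

theorem mem_piCoreOf_iff {π : Set ℕ} {X : Subgroup G} (x : X) :
    (x : G) ∈ piCoreOf π X ↔ x ∈ piCore π X := by
  constructor
  · rintro ⟨y, hy, hyx⟩
    have : y = x := Subtype.ext hyx
    rwa [← this]
  · intro h
    exact ⟨x, h, rfl⟩

variable [Finite G]

theorem mem_core_centralizer {p : ℕ} [Fact p.Prime] {π' : Set ℕ} (hp : p ∉ π') {Q G₀ : Subgroup G}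
    (hQ : IsPGroup p Q) (hQG : Q ≤ G₀) (hC : Subgroup.centralizer (Q : Set G) ≤ G₀) {x : G}
    (hx : x ∈ piCoreOf π' G₀) (hxQ : x ∈ Subgroup.normalizer (Q : Set G)) :
    x ∈ piCoreOf π' (Subgroup.centralizer (Q : Set G)) := by
  have hpp : p.Prime := Fact.out
  have hbot : Q ⊓ piCoreOf π' G₀ = ⊥ := by
    rw [← Subgroup.card_eq_one]
    by_contra hne
    obtain ⟨q, hq, hqd⟩ := Nat.exists_prime_and_dvd hne
    have h1 := piCoreOf_isPi π' G₀ q hq (hqd.trans (Subgroup.card_dvd_of_le inf_le_right))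
    obtain ⟨n, hn⟩ := IsPGroup.iff_card.1 (hQ.to_le (inf_le_left : Q ⊓ piCoreOf π' G₀ ≤ Q))
    rw [hn] at hqd
    have h2 := (Nat.prime_dvd_prime_iff_eq hq hpp).1 (hq.dvd_of_dvd_pow hqd)
    exact hp (h2 ▸ h1)
  have hxC : x ∈ Subgroup.centralizer (Q : Set G) := by
    rw [Subgroup.mem_centralizer_iff]
    intro y hy
    have h1 : x * y * x⁻¹ * y⁻¹ ∈ Q ⊓ piCoreOf π' G₀ := by
      refine Subgroup.mem_inf.2 ⟨?_, ?_⟩
      · exact Q.mul_mem ((Subgroup.mem_normalizer_iff.1 hxQ y).1 hy) (Q.inv_mem hy)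
      · have h2 : y ∈ Subgroup.normalizer (piCoreOf π' G₀ : Set G) :=
          le_normalizer_piCoreOf π' G₀ (hQG hy)
        have h3 := (Subgroup.mem_normalizer_iff.1 h2 x⁻¹).1 (inv_mem hx)
        have h4 : x * y * x⁻¹ * y⁻¹ = x * (y * x⁻¹ * y⁻¹) := by group
        rw [h4]
        exact mul_mem hx h3
    rw [hbot, Subgroup.mem_bot] at h1
    have h2 : x * y = y * x := by
      have h3 : x * y = (x * y * x⁻¹ * y⁻¹) * (y * x) := by group
      rw [h3, h1, one_mul]
    exact h2.symm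
  have hA : piCoreOf π' G₀ ⊓ Subgroup.centralizer (Q : Set G) ≤
      piCoreOf π' (Subgroup.centralizer (Q : Set G)) := by
    refine le_piCoreOf inf_le_right ?_ (isPi_mono inf_le_left (piCoreOf_isPi π' G₀))
    intro y hy
    rw [Subgroup.mem_normalizer_iff]
    intro z
    have h1 : y ∈ Subgroup.normalizer (piCoreOf π' G₀ : Set G) :=
      le_normalizer_piCoreOf π' G₀ (hC hy)
    have h2 : y ∈ Subgroup.normalizer (Subgroup.centralizer (Q : Set G) : Set G) :=
      Subgroup.le_normalizer hy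
    rw [Subgroup.mem_inf, Subgroup.mem_inf]
    exact and_congr (Subgroup.mem_normalizer_iff.1 h1 z) (Subgroup.mem_normalizer_iff.1 h2 z)
  exact hA (Subgroup.mem_inf.2 ⟨hx, hxC⟩)

omit [Finite G] in
theorem normalizer_le_normalizer_centralizer (Q : Subgroup G) :
    Subgroup.normalizer (Q : Set G) ≤
      Subgroup.normalizer (Subgroup.centralizer (Q : Set G) : Set G) := by
  have key : ∀ x ∈ Subgroup.normalizer (Q : Set G), ∀ y ∈ Subgroup.centralizer (Q : Set G),
      x * y * x⁻¹ ∈ Subgroup.centralizer (Q : Set G) := by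
    intro x hx y hy
    rw [Subgroup.mem_centralizer_iff] at hy ⊢
    intro h hh
    have h1 : x⁻¹ * h * x ∈ Q := by
      have := (Subgroup.mem_normalizer_iff.1 (inv_mem hx) h).1 hh
      simpa using this
    have h2 := hy _ h1
    calc h * (x * y * x⁻¹) = x * ((x⁻¹ * h * x) * y) * x⁻¹ := by group
      _ = x * (y * (x⁻¹ * h * x)) * x⁻¹ := by rw [h2]
      _ = x * y * x⁻¹ * h := by group
  intro x hx
  rw [Subgroup.mem_normalizer_iff]
  intro y
  constructor
  · exact key x hx y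
  · intro h
    have := key x⁻¹ (inv_mem hx) _ h
    have h2 : x⁻¹ * (x * y * x⁻¹) * x⁻¹⁻¹ = y := by group
    rwa [h2] at this

theorem core_centralizer_le (π' : Set ℕ) (Q : Subgroup G) :
    piCoreOf π' (Subgroup.centralizer (Q : Set G)) ≤
      piCoreOf π' (Subgroup.normalizer (Q : Set G)) := by
  refine piCoreOf_le_piCoreOf (normalizer_le_normalizer_centralizer Q) ?_
  exact (piCoreOf_le _ _).trans (Subgroup.centralizer_le_normalizer _)

theorem not_dvd_card_piCore {p : ℕ} [Fact p.Prime] {π' : Set ℕ} (hp : p ∉ π') :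
    ¬ p ∣ Nat.card (piCore π' G) := fun h =>
  hp (piCore_isPi π' p Fact.out h)

/-- Passing from `N_G(Q)` to `G₀`: the kernel condition for the block of `N_G(Q)` induced by `b`
implies it for the block of `G₀` induced by `b`. -/
theorem ker_of_ker_normalizer {p : ℕ} [Fact p.Prime] {M : Ideal AlgInt} (hM : IsPModular p M)
    {π' : Set ℕ} (hp : p ∉ π') {Q G₀ N : Subgroup G} (hQ : IsPGroup p Q) (hQG : Q ≤ G₀)
    (hC : Subgroup.centralizer (Q : Set G) ≤ G₀) (hN : N = Subgroup.normalizer (Q : Set G))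
    {b : Set (IrrCharacter ↥(Q ⊔ Subgroup.centralizer (Q : Set G)))}
    {B₀ : Set (IrrCharacter G₀)} {f : Set (IrrCharacter N)}
    (hb : IsInducedBlockIn M G₀ (Q ⊔ Subgroup.centralizer (Q : Set G)) b B₀)
    (hf : IsInducedBlockIn M N (Q ⊔ Subgroup.centralizer (Q : Set G)) b f)
    (hker : ∀ x : N, x ∈ piCore π' N → x ∈ blockKer f) :
    ∀ x : G₀, x ∈ piCore π' G₀ → x ∈ blockKer B₀ := by
  have hCN : Subgroup.centralizer (Q : Set G) ≤ N := by
    rw [hN]
    exact Subgroup.centralizer_le_normalizer _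
  have hKN : Q ⊔ Subgroup.centralizer (Q : Set G) ≤ N :=
    sup_le (by rw [hN]; exact Subgroup.le_normalizer) hCN
  have hKG : Q ⊔ Subgroup.centralizer (Q : Set G) ≤ G₀ := sup_le hQG hC
  have h1 := (le_blockKer_iff_in hM hKN hf (piCore π' N) (not_dvd_card_piCore hp)).1 hker
  refine (le_blockKer_iff_in hM hKG hb (piCore π' G₀) (not_dvd_card_piCore hp)).2 fun x hx => ?_
  apply h1
  rw [← mem_piCoreOf_iff] at hx ⊢
  have hxQ : (x : G) ∈ Subgroup.normalizer (Q : Set G) := by
    rw [← hN]; exact hKN x.2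
  have h2 := core_centralizer_le π' Q (mem_core_centralizer hp hQ hQG hC hx hxQ)
  rw [← hN] at h2
  exact h2

/-- Statement S4734. -/
theorem descend (p : ℕ) [Fact p.Prime] (M : Ideal AlgInt) (hM : IsPModular p M) (π : Set ℕ)
    (hpπ : p ∈ π) (B : Set (IrrCharacter G)) (hB : IsPBlock M B) (D : Subgroup G)
    (hBD : IsDefectGroup p M B D)
    (B₁ : Set (IrrCharacter ↥(Subgroup.normalizer (D : Set G))))
    (hB₁ : IsInducedBlock M (Subgroup.normalizer (D : Set G)) B₁ B)
    (hB₁D : IsDefectGroup p M B₁ (D.subgroupOf (Subgroup.normalizer (D : Set G))))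
    (hker : ∀ n : ↥(Subgroup.normalizer (D : Set G)),
      n ∈ piCore {q | q ∉ π} ↥(Subgroup.normalizer (D : Set G)) → n ∈ blockKer B₁) :
    ∀ (n : ℕ) (G₀ : Subgroup G) (B₀ : Set (IrrCharacter G₀)) (D₀ : Subgroup G₀),
      IsInducedBlock M G₀ B₀ B → IsDefectGroup p M B₀ D₀ →
      Subgroup.centralizer ((D₀.map G₀.subtype : Subgroup G) : Set G) ≤ G₀ →
      Nat.card G - Nat.card D₀ = n →
      ∀ x : G₀, x ∈ piCore {q | q ∉ π} G₀ → x ∈ blockKer B₀ := by
  have hMp : M.IsPrime := hM.2.1.isPrime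
  have hp' : p ∉ {q | q ∉ π} := fun h => h hpπ
  intro n
  induction n using Nat.strong_induction_on with
  | _ n ih =>
    intro G₀ B₀ D₀ hB₀ hD₀ hC hn
    obtain ⟨Q, hQ⟩ : ∃ Q : Subgroup G, D₀.map G₀.subtype = Q := ⟨_, rfl⟩
    rw [hQ] at hC
    have hQp : IsPGroup p Q := hQ ▸ (isDefectGroup_isPGroup hD₀).map G₀.subtype
    have hQG : Q ≤ G₀ := hQ ▸ Subgroup.map_subtype_le D₀
    obtain ⟨N, hN⟩ : ∃ N : Subgroup G, N = Subgroup.normalizer (Q : Set G) := ⟨_, rfl⟩
    have hQN : Q ≤ N := hN ▸ Subgroup.le_normalizer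
    have hCN : Subgroup.centralizer (Q : Set G) ≤ N := by
      rw [hN]
      exact Subgroup.centralizer_le_normalizer _
    have hKN : Q ⊔ Subgroup.centralizer (Q : Set G) ≤ N := sup_le hQN hCN
    have hKG : Q ⊔ Subgroup.centralizer (Q : Set G) ≤ G₀ := sup_le hQG hC
    obtain ⟨b, hb, hbD⟩ := exists_root hM hB₀.1 hD₀ hQ hC
    have hbB : IsInducedBlock M _ b B := trans_in hKG hb hB₀
    obtain ⟨f, hf, hfB⟩ := exists_in_overgroup hM hQp le_sup_left le_sup_right (hKN.trans hN.le) hKN hb.1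
    have hfB := hfB B hbB
    obtain ⟨R, hR⟩ := exists_defectGroup hM hf.2.1
    have hQR := le_defectGroup_of_normal hM hQp hN.le hf.2.1 hR
    have hcardQ : Nat.card (Q.subgroupOf N) = Nat.card D₀ := by
      rw [Nat.card_congr (Subgroup.subgroupOfEquivOfLe hQN).toEquiv, ← hQ]
      exact Nat.card_congr (D₀.equivMapOfInjective G₀.subtype G₀.subtype_injective).symm.toEquiv
    refine ker_of_ker_normalizer hM hp' hQp hQG hC hN hb hf ?_
    by_cases hRQ : R = Q.subgroupOf N
    · subst hN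
      rw [hRQ] at hR
      obtain ⟨g, e, he, hQg, hfe⟩ := eq_conj_of_defect hM hB hBD hB₁ hB₁D hQp hfB hR
      intro x hx
      rw [hfe, ← e.apply_symm_apply x, mem_blockKer_trB]
      apply hker
      have h1 := Cfsg.Agent.OddOrderLocal.PiCore.piCore_map_equiv {q | q ∉ π} e
      rw [← h1] at hx
      obtain ⟨y, hy, hyx⟩ := hx
      have h2 : e.symm x = y := by
        rw [← hyx]
        exact e.symm_apply_apply y
      rw [h2]
      exact hy
    · have hlt : Nat.card D₀ < Nat.card R := by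
        rw [← hcardQ]
        refine lt_of_le_of_ne (Nat.le_of_dvd Nat.card_pos (Subgroup.card_dvd_of_le hQR)) ?_
        intro h
        exact hRQ (Subgroup.eq_of_le_of_card_ge hQR h.ge).symm
      have hRle : Nat.card R ≤ Nat.card G := by
        have h1 : Nat.card R ∣ Nat.card N := Subgroup.card_subgroup_dvd_card R
        have h2 : Nat.card N ∣ Nat.card G := Subgroup.card_subgroup_dvd_card N
        exact Nat.le_of_dvd Nat.card_pos (h1.trans h2)
      refine ih (Nat.card G - Nat.card R) (by omega) N f R hfB hR ?_ rfl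
      refine le_trans (Subgroup.centralizer_le ?_) hCN
      intro x hx
      exact ⟨⟨x, hQN hx⟩, hQR (show (⟨x, hQN hx⟩ : N) ∈ Q.subgroupOf N from hx), rfl⟩

end Cfsg.Agent.H662
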