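import Mathlib
import Cfsg.Agent.H662.Burnside
import Cfsg.Agent.H662.TensorPow

/-!
# The tensor power argument

`exists_not_commute`: there is `i`, depending on `p` and `n` only, such that for every
representation `ρ` of degree `n` of a finite group `H` over an algebraically closed field of
characteristic `p`, with an element `x` of order `p` acting nontrivially, and every weight `e` of
total mass one, the `e`-averages of the endomorphisms of the tensor power `big p n i ρ` do not all
commute with `H`.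
-/

set_option autoImplicit false
open Module

namespace Cfsg.Agent.H662.Key

open Cfsg.Agent.H662.TensorPow Cfsg.Agent.H662.KeyAbs

variable {K : Type*} [Field K] {H : Type*} [Group H]

/-- The tensor power of degree `i * (p - 1)` of a matrix representation. -/
noncomputable def big (p n i : ℕ) (ρ : H →* Matrix (Fin n) (Fin n) K) :
    Representation K H ((Fin i → Fin (p - 1) → Fin n) → K) :=
  ((Matrix.toLinAlgEquiv' : Matrix (Fin i → Fin (p - 1) → Fin n) (Fin i → Fin (p - 1) → Fin n) K ≃ₐ[K]
    _) : _ →* _).comp ((tpHom i).comp ((tpHom (p - 1)).comp ρ))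

theorem big_apply (p n i : ℕ) (ρ : H →* Matrix (Fin n) (Fin n) K) (g : H) :
    big p n i ρ g = Matrix.toLinAlgEquiv' (tp i (tp (p - 1) (ρ g))) := rfl

theorem exists_not_commute (K : Type*) [Field K] [IsAlgClosed K] (p : ℕ) [hp : Fact p.Prime]
    [CharP K p] (n : ℕ) :
    ∃ i : ℕ, ∀ (H : Type*) [Group H] [Fintype H] (ρ : H →* Matrix (Fin n) (Fin n) K) (x : H),
      x ^ p = 1 → ρ x ≠ 1 → ∀ e : H → K, ∑ g, e g = 1 →
      ∃ (a : Module.End K ((Fin i → Fin (p - 1) → Fin n) → K)) (h : H),
        big p n i ρ h * avg (big p n i ρ) e a ≠ avg (big p n i ρ) e a * big p n i ρ h := by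
  classical
  rcases Nat.eq_zero_or_pos n with hn | hn
  · subst hn
    refine ⟨0, fun H _ _ ρ x _ hx => absurd (Subsingleton.elim _ _) hx⟩
  set N := Fintype.card (Fin (p - 1) → Fin n) with hN
  have hNpos : 0 < N := by
    rw [hN, Fintype.card_fun, Fintype.card_fin, Fintype.card_fin]
    positivity
  obtain ⟨i, hi⟩ := exists_growth (N ^ 2) ((N - 1) ^ 2) (N ^ 2)
    (Nat.pow_lt_pow_left (by omega) (by norm_num))
  refine ⟨i, fun H _ _ ρ x hx hx1 e he => ?_⟩
  by_contra hcon
  push Not at hcon
  set X := tp (p - 1) (ρ x) with hX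
  set Y := tp (p - 1) (ρ x⁻¹) with hY
  have hXp : X ^ p = 1 := by rw [hX, ← tp_pow, ← map_pow, hx, map_one, tp_one]
  have hYp : Y ^ p = 1 := by rw [hY, ← tp_pow, ← map_pow, inv_pow, hx, inv_one, map_one, tp_one]
  have hYX : Y * X = 1 := by rw [hY, hX, ← tp_mul, ← map_mul, inv_mul_cancel, map_one, tp_one]
  have hXY : X * Y = 1 := by rw [hY, hX, ← tp_mul, ← map_mul, mul_inv_cancel, map_one, tp_one]
  obtain ⟨u, hu⟩ := exists_free_vector (p := p) (X := ρ x) (by rw [← map_pow, hx, map_one]) hx1
  obtain ⟨a₀, φ, B, C, hBC1, hBC2⟩ := exists_phi_base hXp hYp hYX u hu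
  obtain ⟨Φ, hΦ⟩ := exists_phi hXY hBC1 hBC2 i
  set D := Nat.sqrt ((i + 1) ^ (N ^ 2)) with hD
  have key := finrank_le p (big p n i ρ) e he (fun a h => hcon a h) x hx D ((N - 1) ^ i)
    (by
      intro S hS
      rw [hD, Nat.le_sqrt']
      refine (sq_finrank_le _ hS).trans ?_
      have h1 : Submodule.span K (Set.range (big p n i ρ)) =
          (Submodule.span K (Set.range fun g => tp i (tp (p - 1) (ρ g)))).map
            (Matrix.toLinAlgEquiv' : Matrix (Fin i → Fin (p - 1) → Fin n)
              (Fin i → Fin (p - 1) → Fin n) K ≃ₐ[K] _).toLinearEquiv.toLinearMap := by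
        rw [Submodule.map_span, ← Set.range_comp]
        rfl
      rw [h1, LinearEquiv.finrank_map_eq]
      apply finrank_span_tp_le
      rintro _ ⟨g, rfl⟩
      exact ⟨_, rfl⟩)
    (Matrix.toLinAlgEquiv' Φ) (Matrix.toLinAlgEquiv' (tp i (B * C)))
    (by
      have h1 := congrArg (Matrix.toLinAlgEquiv' : Matrix (Fin i → Fin (p - 1) → Fin n)
              (Fin i → Fin (p - 1) → Fin n) K ≃ₐ[K] _) hΦ
      rw [map_add, map_sum, map_one] at h1
      simp only [map_mul, map_pow] at h1
      exact h1)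
    (by
      have hc : Fintype.card {a : (Fin (p - 1) → Fin n) // a ≠ a₀} = N - 1 := by
        rw [Fintype.card_subtype, Finset.filter_ne', Finset.card_erase_of_mem (Finset.mem_univ _),
          Finset.card_univ]
      have h1 := rank_tp_le i B C
      rw [hc] at h1
      exact h1)
  rw [Module.finrank_fintype_fun_eq_card, Fintype.card_fun, ← hN, Fintype.card_fin] at key
  have h1 : (N ^ 2) ^ i ≤ (i + 1) ^ (N ^ 2) * ((N - 1) ^ 2) ^ i := by
    calc (N ^ 2) ^ i = (N ^ i) ^ 2 := by ring
      _ ≤ (D * (N - 1) ^ i) ^ 2 := Nat.pow_le_pow_left key 2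
      _ = D ^ 2 * ((N - 1) ^ 2) ^ i := by ring
      _ ≤ (i + 1) ^ (N ^ 2) * ((N - 1) ^ 2) ^ i :=
          Nat.mul_le_mul_right _ (by rw [hD]; exact Nat.sqrt_le' _)
  omega

end Cfsg.Agent.H662.Key
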