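import Mathlib
import Cfsg.Agent.H662.PrinRep
import Cfsg.Agent.H662.TwoStep

/-!
# A bound for the image of a representation in the principal block

If the principal idempotent of `H` over the residue field acts as the identity on a space of
dimension `d`, then the kernel of `H` on this space has index at most
`(p ^ m * p ^ (p ^ m) ^ 2) ^ (d ^ 2)`, `p ^ m` being the order of a Sylow `p`-subgroup of `H`.
-/

set_option autoImplicit false
open Module Cfsg

namespace Cfsg.Agent.H662.TraceField

open Cfsg.Agent.H662.KeyAbs Cfsg.Agent.H662.PrinRep Cfsg.Agent.Blocks.Local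

section twist

variable {K : Type*} [Field K] {H : Type*} [Group H] {ι : Type*} [Fintype ι]

/-- Twist of a representation by a field automorphism. -/
def twist (φ : K ≃+* K) (ρ : Representation K H (ι → K)) : Representation K H (ι → K) where
  toFun g :=
    { toFun := fun v i => φ (ρ g (fun j => φ.symm (v j)) i)
      map_add' := fun v w => by
        funext i
        have : (fun j => φ.symm ((v + w) j)) = (fun j => φ.symm (v j)) + fun j => φ.symm (w j) := by
          funext j
          simp
        rw [this, map_add]
        simp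
      map_smul' := fun c v => by
        funext i
        have : (fun j => φ.symm ((c • v) j)) = φ.symm c • fun j => φ.symm (v j) := by
          funext j
          simp
        rw [this, map_smul]
        simp }
  map_one' := by
    ext v i
    simp
  map_mul' g h := by
    ext v i
    simp [Module.End.mul_apply]

omit [Fintype ι] in
theorem twist_apply (φ : K ≃+* K) (ρ : Representation K H (ι → K)) (g : H) (v : ι → K) (i : ι) :
    twist φ ρ g v i = φ (ρ g (fun j => φ.symm (v j)) i) := rfl

theorem trace_twist (φ : K ≃+* K) (ρ : Representation K H (ι → K)) (g : H) :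
    LinearMap.trace K (ι → K) (twist φ ρ g) = φ (LinearMap.trace K (ι → K) (ρ g)) := by
  classical
  rw [LinearMap.trace_eq_matrix_trace K (Pi.basisFun K ι),
    LinearMap.trace_eq_matrix_trace K (Pi.basisFun K ι), Matrix.trace, Matrix.trace, map_sum]
  refine Finset.sum_congr rfl fun i _ => ?_
  simp only [Matrix.diag_apply, LinearMap.toMatrix_apply, Pi.basisFun_apply, Pi.basisFun_repr]
  rw [twist_apply]
  have h : (fun j => φ.symm ((Pi.single i (1 : K) : ι → K) j)) = Pi.single i 1 := by
    funext j
    by_cases hj : j = i
    · subst hj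
      simp
    · simp [hj]
  rw [h]

omit [Fintype ι] in
theorem isIrreducible_twist (φ : K ≃+* K) (ρ : Representation K H (ι → K))
    (hirr : ρ.IsIrreducible) : (twist φ ρ).IsIrreducible := by
  obtain ⟨hnt, h⟩ := (isIrreducible_iff ρ).1 hirr
  rw [isIrreducible_iff]
  refine ⟨hnt, fun S hS => ?_⟩
  let S' : Submodule K (ι → K) :=
    { carrier := {v | (fun i => φ (v i)) ∈ S}
      add_mem' := fun {v w} hv hw => by
        have h1 := S.add_mem hv hw
        have h2 : (fun i => φ ((v + w) i)) = (fun i => φ (v i)) + fun i => φ (w i) := by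
          funext i
          simp
        show (fun i => φ ((v + w) i)) ∈ S
        rw [h2]
        exact h1
      zero_mem' := by
        have h2 : (fun i => φ ((0 : ι → K) i)) = 0 := by
          funext i
          simp
        show (fun i => φ ((0 : ι → K) i)) ∈ S
        rw [h2]
        exact S.zero_mem
      smul_mem' := fun c v hv => by
        have h2 : (fun i => φ ((c • v) i)) = φ c • fun i => φ (v i) := by
          funext i
          simp
        show (fun i => φ ((c • v) i)) ∈ S
        rw [h2]
        exact S.smul_mem _ hv }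
  have hS' : ∀ v, v ∈ S' ↔ (fun i => φ (v i)) ∈ S := fun v => Iff.rfl
  have hinv : Inv ρ S' := by
    intro g v hv
    rw [hS'] at hv ⊢
    have h1 := hS g _ hv
    have h2 : twist φ ρ g (fun i => φ (v i)) = fun i => φ (ρ g v i) := by
      funext i
      rw [twist_apply]
      simp
    rw [h2] at h1
    exact h1
  have hback : ∀ w : ι → K, (fun i => φ ((fun j => φ.symm (w j)) i)) = w := by
    intro w
    funext i
    simp
  rcases h S' hinv with h0 | h0
  · left
    rw [eq_bot_iff]
    intro w hw
    have h1 : (fun j => φ.symm (w j)) ∈ S' := by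
      rw [hS', hback]
      exact hw
    rw [h0, Submodule.mem_bot] at h1
    rw [Submodule.mem_bot]
    funext j
    have := congrFun h1 j
    simpa using this
  · right
    rw [eq_top_iff]
    intro w _
    have h1 : (fun j => φ.symm (w j)) ∈ S' := by
      rw [h0]
      exact Submodule.mem_top
    rw [hS', hback] at h1
    exact h1

theorem asAlgebraHom_eq_sum [Fintype H] {V : Type*} [AddCommGroup V] [Module K V]
    (ρ : Representation K H V) (a : MonoidAlgebra K H) :
    ρ.asAlgebraHom a = ∑ g, a.coeff g • ρ g := by
  rw [Representation.asAlgebraHom_def, MonoidAlgebra.lift_apply,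
    Finsupp.sum_fintype _ _ (by simp)]

omit [Fintype ι] in
theorem asAlgebraHom_twist [Finite H] (φ : K ≃+* K) (ρ : Representation K H (ι → K))
    {e : MonoidAlgebra K H} (he : ∀ g, φ (e.coeff g) = e.coeff g) (h1 : ρ.asAlgebraHom e = 1) :
    (twist φ ρ).asAlgebraHom e = 1 := by
  have := Fintype.ofFinite H
  rw [asAlgebraHom_eq_sum] at h1 ⊢
  ext v i
  have h2 := congrFun (LinearMap.congr_fun h1 (fun j => φ.symm (v j))) i
  rw [LinearMap.sum_apply, Finset.sum_apply] at h2 ⊢
  have h3 := congrArg φ h2
  rw [map_sum] at h3
  simp only [LinearMap.smul_apply, Pi.smul_apply, smul_eq_mul, map_mul, he, Module.End.one_apply,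
    RingEquiv.apply_symm_apply] at h3 ⊢
  simpa only [twist_apply] using h3

/-- The principal idempotent has coefficients fixed by all automorphisms of the field. -/
theorem coeff_fixed {e : MonoidAlgebra K H} [Finite H] (he : IsPrin (aug K H) e) (φ : K ≃+* K)
    (g : H) : φ (e.coeff g) = e.coeff g := by
  have := Fintype.ofFinite H
  have h1 : ∀ a : MonoidAlgebra K H, aug K H (MonoidAlgebra.mapRingEquiv H φ a) =
      φ (aug K H a) := by
    intro a
    rw [aug_apply, aug_apply, map_sum]
    simp
  have h2 := he.map_eq (MonoidAlgebra.mapRingEquiv H φ) (fun a => by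
    rw [h1]
    constructor
    · intro h
      exact φ.injective (by rw [h, map_one])
    · intro h
      rw [h, map_one])
  have h3 := congrArg (fun a : MonoidAlgebra K H => a.coeff g) h2
  simpa using h3

/-- The principal idempotent is invariant under automorphisms of the group. -/
theorem coeff_aut {e : MonoidAlgebra K H} [Finite H] (he : IsPrin (aug K H) e) (σ : H ≃* H)
    (g : H) : e.coeff (σ g) = e.coeff g := by
  have := Fintype.ofFinite H
  have h1 : ∀ a : MonoidAlgebra K H, aug K H (MonoidAlgebra.domCongr K K σ a) = aug K H a := by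
    intro a
    rw [aug_apply, aug_apply]
    simp only [MonoidAlgebra.coeff_domCongr]
    exact Equiv.sum_comp σ.symm.toEquiv (fun x => a.coeff x)
  have h2 := he.map_eq (MonoidAlgebra.domCongr K K σ).toRingEquiv (fun a => by
    show aug K H (MonoidAlgebra.domCongr K K σ a) = 1 ↔ _
    rw [h1])
  have h3 := congrArg (fun a : MonoidAlgebra K H => a.coeff (σ g)) h2
  have h4 : (MonoidAlgebra.domCongr K K σ e).coeff (σ g) = e.coeff (σ g) := h3
  rw [MonoidAlgebra.coeff_domCongr, MulEquiv.symm_apply_apply] at h4
  exact h4.symm

end twist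

section bound

theorem trace_equiv {K : Type*} [Field K] {H : Type*} [Group H] {V W : Type*} [AddCommGroup V]
    [Module K V] [AddCommGroup W] [Module K W]
    {ρ : Representation K H V} {σ : Representation K H W} (e : Representation.Equiv ρ σ) (g : H) :
    LinearMap.trace K V (ρ g) = LinearMap.trace K W (σ g) := by
  have h1 : σ g = e.toLinearEquiv.conj (ρ g) := by
    ext w
    rw [LinearEquiv.conj_apply_apply]
    have h2 := LinearMap.congr_fun (e.isIntertwining' g) (e.toLinearEquiv.symm w)
    have h3 : e.toLinearEquiv (e.toLinearEquiv.symm w) = w := e.toLinearEquiv.apply_symm_apply w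
    have h4 : e.toLinearEquiv (ρ g (e.toLinearEquiv.symm w)) =
        σ g (e.toLinearEquiv (e.toLinearEquiv.symm w)) := h2
    rw [h3] at h4
    exact h4.symm
  rw [h1, LinearMap.trace_conj']

universe u

variable {H : Type u} [Group H] [Finite H] {p : ℕ} [hp : Fact p.Prime] {M : Ideal AlgInt}
  [hP : M.IsPrime]

/-- The traces of a principal irreducible representation lie in a small finite field. -/
theorem exists_trace_pow (hM : IsPModular p M) {e : MonoidAlgebra (ResField M) H}
    (he : IsPrin (aug (ResField M) H) e) {ι : Type} [Fintype ι]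
    (ρ : Representation (ResField M) H (ι → ResField M)) (hirr : ρ.IsIrreducible)
    (h1 : ρ.asAlgebraHom e = 1) :
    ∃ t : ℕ, 1 ≤ t ∧ t ≤ (p ^ (Nat.card H).factorization p) ^ 2 ∧
      ∀ g, LinearMap.trace (ResField M) (ι → ResField M) (ρ g) ^ p ^ t =
        LinearMap.trace (ResField M) (ι → ResField M) (ρ g) := by
  have hmax : M.IsMaximal := isMaximal_of_isPModular hM
  have halg : IsAlgClosed (ResField M) := Cfsg.Agent.Blocks.CyclicAssembly.isAlgClosed_resField
  have hchar : CharP (ResField M) p := charP_resField hM
  set s := (p ^ (Nat.card H).factorization p) ^ 2 with hs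
  let φ : ℕ → (ResField M ≃+* ResField M) := fun k => iterateFrobeniusEquiv (ResField M) p k
  have hφ : ∀ k x, φ k x = x ^ p ^ k := fun k x => iterateFrobeniusEquiv_def _ _ _ _
  have hnot : ¬ ∀ i j : Fin (s + 1), i ≠ j →
      IsEmpty (Representation.Equiv (twist (φ i) ρ) (twist (φ j) ρ)) := by
    intro hne
    have h2 := card_le hM he (fun k : Fin (s + 1) => twist (φ k) ρ)
      (fun k => isIrreducible_twist _ _ hirr) hne
      (fun k => asAlgebraHom_twist _ _ (coeff_fixed he _) h1)
    rw [Nat.card_eq_fintype_card, Fintype.card_fin] at h2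
    omega
  push Not at hnot
  obtain ⟨i, j, hij, hne⟩ := hnot
  have key : ∀ i j : Fin (s + 1), i < j →
      Nonempty (Representation.Equiv (twist (φ i) ρ) (twist (φ j) ρ)) →
      ∃ t : ℕ, 1 ≤ t ∧ t ≤ s ∧
      ∀ g, LinearMap.trace (ResField M) (ι → ResField M) (ρ g) ^ p ^ t =
        LinearMap.trace (ResField M) (ι → ResField M) (ρ g) := by
    intro i j hij ⟨E⟩
    refine ⟨(j : ℕ) - i, by have : (i : ℕ) < j := hij; omega, by have := j.2; omega, fun g => ?_⟩
    have h3 := trace_equiv E g
    rw [trace_twist, trace_twist, hφ, hφ] at h3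
    have h4 : (j : ℕ) = ((j : ℕ) - i) + i := by
      have : (i : ℕ) < j := hij
      omega
    rw [h4, pow_add, pow_mul, ← hφ, ← hφ (i : ℕ)] at h3
    exact ((φ i).injective h3).symm
  rcases lt_or_gt_of_ne hij with h | h
  · exact key i j h hne
  · exact key j i h ⟨hne.some.symm⟩

/-- The solutions of `x ^ q = x`. -/
theorem ncard_fixed_le {K : Type*} [Field K] {q : ℕ} (hq : 1 < q) :
    {x : K | x ^ q = x}.Finite ∧ {x : K | x ^ q = x}.ncard ≤ q := by
  classical
  have h0 : (Polynomial.X ^ q - Polynomial.X : Polynomial K) ≠ 0 :=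
    FiniteField.X_pow_card_sub_X_ne_zero K hq
  have h1 : {x : K | x ^ q = x} =
      ((Polynomial.X ^ q - Polynomial.X : Polynomial K).roots.toFinset : Set K) := by
    ext x
    simp only [Set.mem_ofPred_eq, Finset.mem_coe, Multiset.mem_toFinset]
    rw [Polynomial.mem_roots h0, Polynomial.IsRoot, Polynomial.eval_sub, Polynomial.eval_pow,
      Polynomial.eval_X, sub_eq_zero]
  refine ⟨by rw [h1]; exact Finset.finite_toSet _, ?_⟩
  rw [h1, Set.ncard_coe_finset]
  refine (Multiset.toFinset_card_le _).trans ((Polynomial.card_roots' _).trans ?_)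
  rw [FiniteField.X_pow_card_sub_X_natDegree_eq K hq]

/-- The trace form separates endomorphisms. -/
theorem eq_of_trace_eq {K : Type*} [Field K] {V : Type*} [AddCommGroup V] [Module K V]
    [FiniteDimensional K V] {A A' : Module.End K V}
    (h : ∀ B : Module.End K V, LinearMap.trace K V (A * B) = LinearMap.trace K V (A' * B)) :
    A = A' := by
  ext v
  by_contra hne
  obtain ⟨f, hf⟩ : ∃ f : Module.Dual K V, f (A v - A' v) = 1 :=
    Module.Projective.exists_dual_eq_one K (sub_ne_zero.2 hne)
  have h1 := h (f.smulRight v)
  have h2 : ∀ T : Module.End K V, T * (f.smulRight v) = f.smulRight (T v) := by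
    intro T
    ext w
    simp [Module.End.mul_apply]
  rw [h2, h2, LinearMap.trace_smulRight, LinearMap.trace_smulRight, ← sub_eq_zero, ← map_sub,
    hf] at h1
  exact one_ne_zero h1

/-- Transport of a representation along a linear isomorphism. -/
def conjRep {K : Type*} [Field K] {V W : Type*} [AddCommGroup V] [Module K V] [AddCommGroup W]
    [Module K W] (b : V ≃ₗ[K] W) {G : Type*} [Group G] (ρ : Representation K G V) :
    Representation K G W where
  toFun g := b.conj (ρ g)
  map_one' := by
    ext w
    simp
  map_mul' g h := by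
    ext w
    simp [LinearEquiv.conj_apply_apply, Module.End.mul_apply]

theorem conjRep_apply {K : Type*} [Field K] {V W : Type*} [AddCommGroup V] [Module K V]
    [AddCommGroup W] [Module K W] (b : V ≃ₗ[K] W) {G : Type*} [Group G]
    (ρ : Representation K G V) (g : G) (w : W) : conjRep b ρ g w = b (ρ g (b.symm w)) := rfl

theorem isIrreducible_conjRep {K : Type*} [Field K] {V W : Type*} [AddCommGroup V] [Module K V]
    [AddCommGroup W] [Module K W] (b : V ≃ₗ[K] W) {G : Type*} [Group G]
    (ρ : Representation K G V) (hirr : ρ.IsIrreducible) : (conjRep b ρ).IsIrreducible := by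
  obtain ⟨hnt, h⟩ := (isIrreducible_iff ρ).1 hirr
  rw [isIrreducible_iff]
  refine ⟨b.injective.nontrivial, fun S hS => ?_⟩
  have hinv : Inv ρ (S.comap b.toLinearMap) := by
    intro g v hv
    have h1 := hS g _ hv
    rw [conjRep_apply] at h1
    have h2 : b.symm (b.toLinearMap v) = v := b.symm_apply_apply v
    rw [h2] at h1
    exact h1
  rcases h _ hinv with h0 | h0
  · left
    rw [eq_bot_iff]
    intro w hw
    have h1 : b.symm w ∈ S.comap b.toLinearMap := by
      rw [Submodule.mem_comap]
      have h2 : b.toLinearMap (b.symm w) = w := b.apply_symm_apply w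
      rwa [h2]
    rw [h0, Submodule.mem_bot] at h1
    rw [Submodule.mem_bot, ← b.apply_symm_apply w, h1, map_zero]
  · right
    rw [eq_top_iff]
    intro w _
    have h1 : b.symm w ∈ S.comap b.toLinearMap := by
      rw [h0]
      exact Submodule.mem_top
    rw [Submodule.mem_comap] at h1
    have h2 : b.toLinearMap (b.symm w) = w := b.apply_symm_apply w
    rwa [h2] at h1

theorem asAlgebraHom_conjRep {K : Type*} [Field K] {V W : Type*} [AddCommGroup V] [Module K V]
    [AddCommGroup W] [Module K W] (b : V ≃ₗ[K] W) {G : Type*} [Group G] [Finite G]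
    (ρ : Representation K G V) {e : MonoidAlgebra K G} (h1 : ρ.asAlgebraHom e = 1) :
    (conjRep b ρ).asAlgebraHom e = 1 := by
  have := Fintype.ofFinite G
  rw [asAlgebraHom_eq_sum] at h1 ⊢
  have h2 := congrArg b.conj h1
  rw [map_sum] at h2
  simp only [map_smul] at h2
  have h3 : b.conj (1 : Module.End K V) = 1 := by
    ext w
    simp
  rw [h3] at h2
  exact h2

theorem index_ker_of_trace {K : Type*} [Field K] [IsAlgClosed K] {G : Type*} [Group G] {V : Type*}
    [AddCommGroup V] [Module K V] [FiniteDimensional K V] (ρ : Representation K G V)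
    (hirr : ρ.IsIrreducible) {q : ℕ} (hq1 : 1 < q)
    (ht : ∀ g, LinearMap.trace K V (ρ g) ^ q = LinearMap.trace K V (ρ g)) :
    (MonoidHom.ker ρ).index ≤ q ^ (finrank K V ^ 2) := by
  obtain ⟨hTfin, hTcard⟩ := ncard_fixed_le (K := K) hq1
  set T := {x : K | x ^ q = x} with hT
  have hTf : Finite T := hTfin
  obtain ⟨S, hS1, hS2, hS3⟩ := exists_linearIndependent K (Set.range ρ)
  rw [span_range_eq_top ρ hirr] at hS2
  have hSf : Finite S := hS3.finite
  have := Fintype.ofFinite S
  have hScard : Nat.card S ≤ finrank K V ^ 2 := by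
    have h2 := hS3.fintype_card_le_finrank
    rw [Module.finrank_linearMap, ← sq] at h2
    rwa [Nat.card_eq_fintype_card]
  have hmem : ∀ (g : G) (B : S), LinearMap.trace K V (ρ g * (B : Module.End K V)) ∈ T := by
    intro g B
    obtain ⟨h, hh⟩ := hS1 B.2
    rw [← hh, ← map_mul]
    exact ht _
  refine (index_le_of_map (X := S → T) (MonoidHom.ker ρ) (fun g B => ⟨_, hmem g B⟩) ?_).trans ?_
  · intro g g' hgg
    have h2 : (LinearMap.trace K V) ∘ₗ (LinearMap.mulLeft K (ρ g)) =
        (LinearMap.trace K V) ∘ₗ (LinearMap.mulLeft K (ρ g')) := by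
      apply LinearMap.ext_on hS2
      intro B hB
      exact congrArg Subtype.val (congrFun hgg ⟨B, hB⟩)
    have h3 : ρ g = ρ g' := eq_of_trace_eq fun B => LinearMap.congr_fun h2 B
    rw [MonoidHom.mem_ker, map_mul, ← h3, ← map_mul, inv_mul_cancel, map_one]
  · rw [Nat.card_fun]
    calc Nat.card T ^ Nat.card S ≤ q ^ Nat.card S := Nat.pow_le_pow_left hTcard _
      _ ≤ q ^ (finrank K V ^ 2) := Nat.pow_le_pow_right (by omega) hScard

/-- The kernel of a principal irreducible representation. -/
theorem index_ker_irreducible (hM : IsPModular p M) {e : MonoidAlgebra (ResField M) H}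
    (he : IsPrin (aug (ResField M) H) e) {V : Type*} [AddCommGroup V] [Module (ResField M) V]
    [FiniteDimensional (ResField M) V] (ρ : Representation (ResField M) H V)
    (hirr : ρ.IsIrreducible) (h1 : ρ.asAlgebraHom e = 1) :
    (MonoidHom.ker ρ).index ≤
      (p ^ (p ^ (Nat.card H).factorization p) ^ 2) ^ (finrank (ResField M) V ^ 2) := by
  have hmax : M.IsMaximal := isMaximal_of_isPModular hM
  have halg : IsAlgClosed (ResField M) := Cfsg.Agent.Blocks.CyclicAssembly.isAlgClosed_resField
  -- pass to coordinates
  obtain ⟨t, ht1, ht2, ht⟩ := exists_trace_pow hM he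
    (conjRep (finBasis (ResField M) V).equivFun ρ) (isIrreducible_conjRep _ ρ hirr)
    (asAlgebraHom_conjRep _ ρ h1)
  have ht' : ∀ g, LinearMap.trace (ResField M) V (ρ g) ^ p ^ t =
      LinearMap.trace (ResField M) V (ρ g) := by
    intro g
    have h2 := ht g
    have h3 : LinearMap.trace (ResField M) _ (conjRep (finBasis (ResField M) V).equivFun ρ g) =
        LinearMap.trace (ResField M) V (ρ g) := LinearMap.trace_conj' (ρ g) _
    rw [h3] at h2
    exact h2
  refine (index_ker_of_trace ρ hirr (Nat.one_lt_pow (by omega) hp.out.one_lt) ht').trans ?_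
  exact Nat.pow_le_pow_left (Nat.pow_le_pow_right hp.out.pos ht2) _

/-- The kernel of a representation in the principal block. -/
theorem index_ker_le (hM : IsPModular p M) {e : MonoidAlgebra (ResField M) H}
    (he : IsPrin (aug (ResField M) H) e) {V : Type*} [AddCommGroup V] [Module (ResField M) V]
    [FiniteDimensional (ResField M) V] (ρ : Representation (ResField M) H V)
    (h1 : ρ.asAlgebraHom e = 1) :
    (MonoidHom.ker ρ).index ≤
      (p ^ (Nat.card H).factorization p * p ^ (p ^ (Nat.card H).factorization p) ^ 2) ^
        (finrank (ResField M) V ^ 2) := by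
  have hchar : CharP (ResField M) p := charP_resField hM
  have hp1 := hp.out.pos
  set P := p ^ (Nat.card H).factorization p with hP
  set Q := p ^ P ^ 2 with hQ
  have hPpos : 0 < P := Nat.pow_pos hp1
  have hQpos : 0 < Q := Nat.pow_pos hp1
  induction hn : finrank (ResField M) V using Nat.strong_induction_on generalizing V with
  | _ n ih =>
    rcases subsingleton_or_nontrivial V with hV | hV
    · have h2 : MonoidHom.ker ρ = ⊤ := by
        rw [eq_top_iff]
        intro g _
        exact Subsingleton.elim _ _
      rw [h2, Subgroup.index_top]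
      exact Nat.one_le_pow _ _ (by positivity)
    by_cases hirr : ρ.IsIrreducible
    · have h2 := index_ker_irreducible hM he ρ hirr h1
      rw [← hP, ← hQ, hn] at h2
      exact h2.trans (Nat.pow_le_pow_left (Nat.le_mul_of_pos_left _ hPpos) _)
    · rw [isIrreducible_iff] at hirr
      push Not at hirr
      obtain ⟨N, hN, hN0, hN1⟩ := hirr hV
      have h2 := Cfsg.Agent.H662.KeyAbs.index_ker_le (p := p) ρ N hN
      have hf1 : 0 < finrank (ResField M) N := by
        rw [Module.finrank_pos_iff]
        exact Submodule.nontrivial_iff_ne_bot.2 hN0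
      have hf2 : finrank (ResField M) N < finrank (ResField M) V :=
        Submodule.finrank_lt hN1
      have hf3 := Submodule.finrank_quotient_add_finrank N
      have h3 := ih _ (by omega) (sub ρ N hN) (asAlgebraHom_sub_eq_one ρ N hN h1) rfl
      have h4 := ih _ (by omega) (quot ρ N hN) (asAlgebraHom_quot_eq_one ρ N hN h1) rfl
      set a := finrank (ResField M) N with ha
      set b := finrank (ResField M) (V ⧸ N) with hb
      have hab : n = a + b := by omega
      refine h2.trans ?_
      calc P * ((MonoidHom.ker (sub ρ N hN)).index * (MonoidHom.ker (quot ρ N hN)).index)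
          ≤ (P * Q) * ((P * Q) ^ a ^ 2 * (P * Q) ^ b ^ 2) :=
            Nat.mul_le_mul (Nat.le_mul_of_pos_right _ hQpos) (Nat.mul_le_mul h3 h4)
        _ = (P * Q) ^ (a ^ 2 + b ^ 2 + 1) := by ring
        _ ≤ (P * Q) ^ (n ^ 2) := by
            apply Nat.pow_le_pow_right (by positivity)
            rw [hab]
            have hb1 : 1 ≤ b := by omega
            nlinarith

end bound

end Cfsg.Agent.H662.TraceField
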